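import Cfsg.Agent.H35.OddPush.Main
import Mathlib

/-!
Images of `Ω₁(Z(O₂(G)))` under arbitrary automorphisms of the Sylow 2-subgroup in the pushing-up situation:
the twin property and the absence of triangles (`H35.OddPush.img_le_core` without the odd order).
-/

set_option autoImplicit false
set_option linter.style.haveILetI false
set_option linter.unusedSectionVars false
set_option maxHeartbeats 1000000

open scoped commutatorElement

namespace Cfsg.Agent.H73.QT

open Subgroup
open Cfsg.Agent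
open Cfsg.Agent.H34.Push (vee cee Ctx)
open Cfsg.Agent.H35.OddPush

universe u

variable {G : Type u} [Group G] [Finite G] {T : Sylow 2 G} {M : Subgroup G}

/-- An image commuting with `V` lies in `O₂(G)`. -/
theorem img_le_of_not_adj (hc : Ctx T M) {a : MulAut ↥(T : Subgroup G)} (h : ¬ Adj 1 a) :
    img a ≤ Cfsg.pCore 2 G := by
  unfold Adj at h
  rw [not_not, img_one] at h
  exact (le_inf (moved_le _ _) (le_centralizer_iff.1 h)).trans hc.inf_cee.le

/-- Two images that do not commute with a third, nor fail to commute with each other, have the same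
partners. -/
theorem twins (hc : Ctx T M) (hcase : Case T) (hf : CoreFacts G) {u v w x : MulAut ↥(T : Subgroup G)}
    (huv : ¬ Adj u v) (huw : Adj u w) (hvw : Adj v w) (hux : Adj u x) : Adj v x := by
  classical
  haveI := H35.OddPush.vee_normal (G := G)
  haveI := H35.OddPush.oddCent_normal (G := G)
  haveI := H34.Push.pCore_normal' (G := G) (p := 2)
  set Q := Cfsg.pCore 2 G with hQdef
  have hQT : Q ≤ (T : Subgroup G) := H72.pCore_le_sylow T
  obtain ⟨U₀, hU₀⟩ := hcase.image
  set z := ⁅vee 2 G, U₀⁆ with hzdef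
  have hnle : ∀ a : MulAut ↥(T : Subgroup G), ¬ Adj 1 a → img a ≤ Q := fun a h => by
    unfold Adj at h
    rw [not_not, img_one] at h
    exact (le_inf (moved_le _ _) (le_centralizer_iff.1 h)).trans hc.inf_cee.le
  -- the commutators with a neighbour of `V` are all the same and not centralised by `O²(G)`
  have hz : ∀ b : MulAut ↥(T : Subgroup G), Adj 1 b → ⁅vee 2 G, img b⁆ = z ∧ ¬ z ≤ oddCent G := by
    intro b hb
    have hn := nbr_of_adj hc hb
    have e := comm_vee_eq hn.norm (hU₀ _ hn)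
    refine ⟨e, fun hle => hn.move fun x hx => H34.Push.core_le_cee (mem_core_of_small hc (hn.le hx) fun v hv => ?_)⟩
    exact hle (e.le (commutator_mem_commutator hv hx))
  -- the commutator at a vertex does not depend on the neighbour
  have hzat : ∀ (u b b' : MulAut ↥(T : Subgroup G)), Adj u b → Adj u b' → ⁅img u, img b⁆ = ⁅img u, img b'⁆ := by
    intro u b b' hb hb'
    have h1 := adj_mul u⁻¹ hb
    have h2 := adj_mul u⁻¹ hb'
    rw [inv_mul_cancel] at h1 h2
    have e := (hz _ h1).1.trans (hz _ h2).1.symm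
    have htr : ∀ c, ⁅img u, img c⁆ = moved u ⁅vee 2 G, img (u⁻¹ * c)⁆ := by
      intro c
      have hc' : img c = moved u (img (u⁻¹ * c)) := by
        rw [← moved_mul, mul_inv_cancel_left]
      rw [hc']
      have hsub : ∀ H K : Subgroup G, H ≤ (T : Subgroup G) → K ≤ (T : Subgroup G) →
          ⁅moved u H, moved u K⁆ = moved u ⁅H, K⁆ := by
        intro H K hH hK
        have e1 : (⁅H.subgroupOf (T : Subgroup G), K.subgroupOf (T : Subgroup G)⁆).map (T : Subgroup G).subtype =
            ⁅H, K⁆ := by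
          rw [Subgroup.map_commutator, subgroupOf_map_subtype, subgroupOf_map_subtype, inf_eq_left.2 hH,
            inf_eq_left.2 hK]
        conv_rhs => rw [← e1, moved_map_subtype]
        rw [moved, moved, Subgroup.map_commutator, Subgroup.map_commutator]
      exact hsub _ _ vee_le_T (moved_le _ _)
    rw [htr, htr, e]
  -- unrelated images with a common neighbour have the same neighbours
  have htwin1 : ∀ v w, ¬ Adj 1 v → Adj 1 w → Adj v w → ∀ x : MulAut ↥(T : Subgroup G), Adj 1 x → Adj v x := by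
    intro v w hv hw hvw x hx hvx
    have hW : img v ≤ Q := hnle v hv
    have hbot : ⁅img v, img x⁆ = ⊥ := commutator_eq_bot_iff_le_centralizer.2 hvx
    have h1 : ⁅img w, img v⁆ = z := by
      rw [hzat w v 1 (adj_symm hvw) (adj_symm hw), img_one, commutator_comm]
      exact (hz w hw).1
    refine (hz w hw).2 (h1 ▸ ?_)
    rw [commutator_comm]
    refine commutator_le.2 fun g hg y hy => ?_
    have hnx := nbr_of_adj hc hx
    have hy' : y ∈ img x ⊔ Q := by
      rw [hU₀ _ hnx, ← hU₀ _ (nbr_of_adj hc hw)]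
      exact mem_sup_left hy
    obtain ⟨x', hx', q, hq, rfl⟩ := mem_sup_of_normal_right.1 hy'
    have h3 : ⁅g, x'⁆ = 1 := (mem_bot (G := G)).1 (hbot ▸ commutator_mem_commutator hg hx')
    have e : ⁅g, x' * q⁆ = ⁅g, x'⁆ * (x' * ⁅g, q⁆ * x'⁻¹) := by
      rw [commutatorElement_def, commutatorElement_def, commutatorElement_def]; group
    rw [e, h3, one_mul]
    exact Normal.conj_mem inferInstance _ (hf.derived (commutator_mem_commutator (hW hg) hq)) _
  have e1 : ¬ Adj 1 (u⁻¹ * v) := fun h5 => huv (by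
    have := adj_mul u h5
    rwa [mul_one, mul_inv_cancel_left] at this)
  have e2 := adj_mul u⁻¹ huw
  have e3 := adj_mul u⁻¹ hvw
  have e4 := adj_mul u⁻¹ hux
  rw [inv_mul_cancel] at e2 e4
  have := adj_mul u (htwin1 _ _ e1 e2 e3 _ e4)
  rwa [mul_inv_cancel_left, mul_inv_cancel_left] at this

/-- Three images cannot pairwise fail to commute. -/
theorem no_triangle (hc : Ctx T M) (hcase : Case T) (hf : CoreFacts G) {u v w : MulAut ↥(T : Subgroup G)}
    (huv : Adj u v) (hvw : Adj v w) : ¬ Adj u w := by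
  intro huw
  classical
  haveI := H35.OddPush.vee_normal (G := G)
  haveI := H35.OddPush.oddCent_normal (G := G)
  haveI := H34.Push.pCore_normal' (G := G) (p := 2)
  set Q := Cfsg.pCore 2 G with hQdef
  have hQT : Q ≤ (T : Subgroup G) := H72.pCore_le_sylow T
  obtain ⟨U₀, hU₀⟩ := hcase.image
  set z := ⁅vee 2 G, U₀⁆ with hzdef
  have hnle : ∀ a : MulAut ↥(T : Subgroup G), ¬ Adj 1 a → img a ≤ Q := fun a h => by
    unfold Adj at h
    rw [not_not, img_one] at h
    exact (le_inf (moved_le _ _) (le_centralizer_iff.1 h)).trans hc.inf_cee.le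
  -- the commutators with a neighbour of `V` are all the same and not centralised by `O²(G)`
  have hz : ∀ b : MulAut ↥(T : Subgroup G), Adj 1 b → ⁅vee 2 G, img b⁆ = z ∧ ¬ z ≤ oddCent G := by
    intro b hb
    have hn := nbr_of_adj hc hb
    have e := comm_vee_eq hn.norm (hU₀ _ hn)
    refine ⟨e, fun hle => hn.move fun x hx => H34.Push.core_le_cee (mem_core_of_small hc (hn.le hx) fun v hv => ?_)⟩
    exact hle (e.le (commutator_mem_commutator hv hx))
  -- the commutator at a vertex does not depend on the neighbour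
  have hzat : ∀ (u b b' : MulAut ↥(T : Subgroup G)), Adj u b → Adj u b' → ⁅img u, img b⁆ = ⁅img u, img b'⁆ := by
    intro u b b' hb hb'
    have h1 := adj_mul u⁻¹ hb
    have h2 := adj_mul u⁻¹ hb'
    rw [inv_mul_cancel] at h1 h2
    have e := (hz _ h1).1.trans (hz _ h2).1.symm
    have htr : ∀ c, ⁅img u, img c⁆ = moved u ⁅vee 2 G, img (u⁻¹ * c)⁆ := by
      intro c
      have hc' : img c = moved u (img (u⁻¹ * c)) := by
        rw [← moved_mul, mul_inv_cancel_left]
      rw [hc']
      have hsub : ∀ H K : Subgroup G, H ≤ (T : Subgroup G) → K ≤ (T : Subgroup G) →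
          ⁅moved u H, moved u K⁆ = moved u ⁅H, K⁆ := by
        intro H K hH hK
        have e1 : (⁅H.subgroupOf (T : Subgroup G), K.subgroupOf (T : Subgroup G)⁆).map (T : Subgroup G).subtype =
            ⁅H, K⁆ := by
          rw [Subgroup.map_commutator, subgroupOf_map_subtype, subgroupOf_map_subtype, inf_eq_left.2 hH,
            inf_eq_left.2 hK]
        conv_rhs => rw [← e1, moved_map_subtype]
        rw [moved, moved, Subgroup.map_commutator, Subgroup.map_commutator]
      exact hsub _ _ vee_le_T (moved_le _ _)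
    rw [htr, htr, e]
  -- move the triangle to `V`
  have h1 := adj_mul u⁻¹ huv
  have h2 := adj_mul u⁻¹ huw
  have h3 := adj_mul u⁻¹ hvw
  rw [inv_mul_cancel] at h1 h2
  set b := u⁻¹ * v
  set c := u⁻¹ * w
  set X := img b with hXdef
  set Y := img c with hYdef
  have hnX := nbr_of_adj hc h1
  have hnY := nbr_of_adj hc h2
  have hXY : X ⊔ Q = Y ⊔ Q := (hU₀ _ hnX).trans (hU₀ _ hnY).symm
  -- `[Y, X]` is the common commutator
  have hYX : ⁅Y, X⁆ = z := by
    rw [commutator_comm, hXdef, hYdef, hzat b c 1 h3 (adj_symm h1), img_one, commutator_comm]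
    exact (hz b h1).1
  refine (hz b h1).2 (hYX ▸ ?_)
  -- `Q = V C_Q(X)`
  have hXT : X ≤ (T : Subgroup G) := hnX.le
  set C := Q ⊓ centralizer (X : Set G) with hC
  have hTX : (T : Subgroup G) ⊓ centralizer (X : Set G) = X ⊔ C := by
    refine le_antisymm (fun g hg => ?_) (sup_le (le_inf hXT (img_comm_self b)) (inf_le_inf_right _ hQT))
    obtain ⟨x, hx, q, hq, rfl⟩ := mem_sup_of_normal_right.1 (hcase.self_cent X hnX hg)
    refine mul_mem (mem_sup_left hx) (mem_sup_right ⟨hq, ?_⟩)
    have := mul_mem (inv_mem (img_comm_self b hx)) hg.2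
    rwa [inv_mul_cancel_left] at this
  have hcardQ : Nat.card ↥(X ⊔ C) = Nat.card ↥Q := by
    rw [← hTX, hXdef, ← moved_cent b vee_le_T, card_moved b inf_le_left,
      show (T : Subgroup G) ⊓ centralizer (vee 2 G : Set G) = Q from hc.inf_cee]
  have hXC : X ⊓ C = X ⊓ cee 2 G := by
    refine le_antisymm (le_inf inf_le_left (inf_le_right.trans (inf_le_left.trans H34.Push.core_le_cee)))
      (le_inf inf_le_left (le_inf ?_ (inf_le_left.trans (img_comm_self b))))
    exact (inf_le_inf_right _ hXT).trans hc.inf_cee.le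
  have hVC : vee 2 G ⊓ C = vee 2 G ⊓ centralizer (X : Set G) := by
    rw [hC, ← inf_assoc, inf_eq_left.2 H34.Push.vee_le_core]
  have hQV : Q ≤ vee 2 G ⊔ C := by
    refine (eq_of_le_of_card_ge (sup_le H34.Push.vee_le_core inf_le_left) (le_of_eq ?_)).ge
    have e1 := card_sup_mul_card_inf' ((le_centralizer_iff.1 inf_le_right : X ≤ centralizer (C : Set G)).trans
      (centralizer_le_normalizer _))
    have e2 : Nat.card ↥(vee 2 G ⊔ C) * Nat.card ↥(vee 2 G ⊓ C) = Nat.card ↥(vee 2 G) * Nat.card ↥C := by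
      rw [mul_comm]
      have := H32.card_sup_mul_card_inf C (vee 2 G)
      rw [sup_comm, inf_comm] at this
      rw [mul_comm, this, mul_comm]
    have e3 : Nat.card ↥X = Nat.card ↥(X ⊓ cee 2 G) * (cee 2 G).relIndex X := by
      rw [← inf_relIndex_left, H32.card_mul_relIndex (inf_le_left : X ⊓ cee 2 G ≤ X)]
    rw [hXC, hcardQ, e3] at e1
    rw [hVC, hnX.exact_off] at e2
    refine Nat.eq_of_mul_eq_mul_right (Nat.mul_pos (Nat.card_pos (α := ↥(X ⊓ cee 2 G)))
      (Nat.card_pos (α := ↥(vee 2 G ⊓ centralizer (X : Set G))))) ?_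
    calc Nat.card ↥Q * (Nat.card ↥(X ⊓ cee 2 G) * Nat.card ↥(vee 2 G ⊓ centralizer (X : Set G)))
        = (Nat.card ↥Q * Nat.card ↥(X ⊓ cee 2 G)) * Nat.card ↥(vee 2 G ⊓ centralizer (X : Set G)) := by ring
      _ = Nat.card ↥(X ⊓ cee 2 G) *
          ((cee 2 G).relIndex X * Nat.card ↥(vee 2 G ⊓ centralizer (X : Set G)) * Nat.card ↥C) := by rw [e1]; ring
      _ = _ := by rw [← e2]; ring
  -- the decomposition of the elements of `Y`
  have hdec : ∀ y ∈ Y, ∃ x ∈ X, ∃ v ∈ vee 2 G, ∃ d ∈ C, y = x * (v * d) := by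
    intro y hy
    obtain ⟨x, hx, q, hq, rfl⟩ := mem_sup_of_normal_right.1 (hXY.ge (mem_sup_left hy) : y ∈ X ⊔ Q)
    obtain ⟨v, hv, d, hd, rfl⟩ := mem_sup_of_normal_left.1 (hQV hq)
    exact ⟨x, hx, v, hv, d, hd, rfl⟩
  -- commutators of vectors with `X` commute with everything in sight
  have hcm : ∀ x ∈ X, ∀ v ∈ vee 2 G, ⁅v, x⁆ ∈ X ∧ ⁅v, x⁆ ∈ vee 2 G := by
    intro x hx v hv
    constructor
    · rw [commutatorElement_def]
      exact mul_mem ((mem_normalizer_iff.1 (hnX.norm (vee_le_T hv)) _).1 hx) (inv_mem hx)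
    · rw [commutatorElement_def, mul_assoc, mul_assoc, ← mul_assoc x]
      exact mul_mem hv (Normal.conj_mem inferInstance _ (inv_mem hv) x)
  have hXX : ∀ x ∈ X, ∀ x' ∈ X, x * x' = x' * x := fun x hx x' hx' =>
    mem_centralizer_iff.1 (img_comm_self b hx') x hx
  have hVV : ∀ v ∈ vee 2 G, ∀ v' ∈ vee 2 G, v * v' = v' * v := fun v hv v' hv' =>
    mem_centralizer_iff.1 (vee_comm_self hv') v hv
  have hXd : ∀ x ∈ X, ∀ d ∈ C, x * d = d * x := fun x hx d hd => mem_centralizer_iff.1 hd.2 x hx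
  have hVd : ∀ v ∈ vee 2 G, ∀ d ∈ C, v * d = d * v := fun v hv d hd =>
    mem_centralizer_iff.1 (H34.Push.core_le_cee hd.1) v hv
  -- the product of two such elements
  have hprod : ∀ x ∈ X, ∀ v ∈ vee 2 G, ∀ d ∈ C, ∀ x' ∈ X, ∀ v' ∈ vee 2 G, ∀ d' ∈ C,
      x * (v * d) * (x' * (v' * d')) = ⁅v, x'⁆ * (x * x') * (v * v') * (d * d') := by
    intro x hx v hv d hd x' hx' v' hv' d' hd'
    calc x * (v * d) * (x' * (v' * d')) = x * v * (d * x') * v' * d' := by group
      _ = x * v * (x' * d) * v' * d' := by rw [hXd x' hx' d hd]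
      _ = x * ⁅v, x'⁆ * x' * v * (d * v') * d' := by rw [commutatorElement_def]; group
      _ = (x * ⁅v, x'⁆) * x' * v * (v' * d) * d' := by rw [hVd v' hv' d hd]
      _ = (⁅v, x'⁆ * x) * x' * v * (v' * d) * d' := by rw [hXX x hx _ (hcm x' hx' v hv).1]
      _ = _ := by group
  rw [commutator_comm]
  refine commutator_le.2 fun x' hx' y hy => ?_
  obtain ⟨x, hx, v, hv, d, hd, rfl⟩ := hdec y hy
  obtain ⟨y', hy', q', hq', e'⟩ := mem_sup_of_normal_right.1 (hXY.le (mem_sup_left hx') : x' ∈ Y ⊔ Q)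
  obtain ⟨v', hv', d', hd', hvd⟩ := mem_sup_of_normal_left.1 (hQV (inv_mem hq'))
  have hy'eq : y' = x' * (v' * d') := by rw [hvd, ← e', mul_inv_cancel_right]
  rw [hy'eq] at hy'
  have hYc : x * (v * d) * (x' * (v' * d')) = x' * (v' * d') * (x * (v * d)) :=
    mem_centralizer_iff.1 (img_comm_self c hy') _ hy
  have hrel : ⁅v, x'⁆ * ⁅v', x⁆ ∈ oddCent G := by
    rw [hprod x hx v hv d hd x' hx' v' hv' d' hd', hprod x' hx' v' hv' d' hd' x hx v hv d hd,
      hXX x' hx' x hx, hVV v' hv' v hv] at hYc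
    set P := x * x' * (v * v')
    have e1 : ⁅v', x⁆⁻¹ * ⁅v, x'⁆ = P * (d' * d * (d * d')⁻¹) * P⁻¹ := by
      calc ⁅v', x⁆⁻¹ * ⁅v, x'⁆ = ⁅v', x⁆⁻¹ * (⁅v, x'⁆ * (x * x') * (v * v') * (d * d')) * (d * d')⁻¹ * P⁻¹ := by
            simp only [P]; group
        _ = _ := by rw [hYc]; simp only [P]; group
    have e2 : ⁅v', x⁆⁻¹ = ⁅v', x⁆ := by
      refine inv_eq_of_mul_eq_one_left ?_
      rw [← sq]; exact (H34.Push.vee_elementary (G := G) (p := 2)).2 _ (hcm x hx v' hv').2
    have e3 : d' * d * (d * d')⁻¹ = ⁅d', d⁆ := by rw [commutatorElement_def]; group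
    rw [hVV _ (hcm x' hx' v hv).2 _ (hcm x hx v' hv').2, ← e2, e1, e3]
    exact Normal.conj_mem inferInstance _ (hf.derived (commutator_mem_commutator hd'.1 hd.1)) _
  have hself : ⁅v, x⁆ ∈ oddCent G := by
    have h1 : x * (v * d) * (x * (v * d)) = 1 := by
      rw [← sq]; exact hnY.elem.2 _ hy
    rw [hprod x hx v hv d hd x hx v hv d hd, show x * x = 1 by rw [← sq]; exact hnX.elem.2 _ hx,
      show v * v = 1 by rw [← sq]; exact (H34.Push.vee_elementary (G := G) (p := 2)).2 _ hv, mul_one, mul_one] at h1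
    rw [eq_inv_of_mul_eq_one_left h1]
    exact inv_mem (hf.square hd.1)
  have hgoal := hcase.coord X hnX x hx x' hx' v hv v' hv' hself hrel
  have hcx : ⁅v, x'⁆ * x' = x' * ⁅v, x'⁆ := hXX _ (hcm x' hx' v hv).1 _ hx'
  have hcx2 : ⁅v, x'⁆ * x = x * ⁅v, x'⁆ := hXX _ (hcm x' hx' v hv).1 _ hx
  have e : ⁅x', x * (v * d)⁆ = ⁅v, x'⁆⁻¹ := by
    have h4 : x * (v * d) * x' = ⁅v, x'⁆ * (x' * (x * (v * d))) := by
      calc x * (v * d) * x' = x * v * (d * x') := by group
        _ = x * v * (x' * d) := by rw [hXd x' hx' d hd]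
        _ = x * ⁅v, x'⁆ * x' * v * d := by rw [commutatorElement_def]; group
        _ = ⁅v, x'⁆ * x * x' * v * d := by rw [hcx2]
        _ = ⁅v, x'⁆ * (x * x') * v * d := by group
        _ = ⁅v, x'⁆ * (x' * x) * v * d := by rw [hXX x hx x' hx']
        _ = _ := by group
    rw [commutatorElement_def]
    calc x' * (x * (v * d)) * x'⁻¹ * (x * (v * d))⁻¹
        = x' * (x * (v * d)) * (x * (v * d) * x')⁻¹ := by group
      _ = _ := by rw [h4]; group
  rw [e]
  exact inv_mem hgoal


end Cfsg.Agent.H73.QT
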