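import Cfsg.Agent.H73.QT.Graph
import Cfsg.Agent.H73.QT.Pair
import Cfsg.Agent.H72.CharP
import Cfsg.Agent.H83.Basic
import Cfsg.Agent.H51.PMinGeneration
import Cfsg.Agent.H51.Basic
import Cfsg.Prelude.Def_Quasithin

/-!
A common normal 2-subgroup for a pair of overgroups of a Sylow 2-subgroup in a group of even characteristic:
if `R` is a Sylow 2-subgroup of `O²(H)R`, normalised by `M₀`, and `T` lies in a unique maximal subgroup of `H`,
then some nontrivial subgroup of `R` is normalised by `M₀` and by `H`.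
-/

set_option autoImplicit false
set_option linter.style.haveILetI false
set_option linter.unusedSectionVars false
set_option maxHeartbeats 1000000

open scoped commutatorElement Pointwise

namespace Cfsg.Agent.H73.QT

open Subgroup
open Cfsg.Agent
open Cfsg.Agent.H34.Push (vee cee Ctx)
open Cfsg.Agent.H35.OddPush (moved img Adj)

universe u

variable {G : Type u} [Group G] [Finite G]

/-- `O²(H)` is generated by the elements of odd order. -/
theorem oddGenerated_eq (H : Subgroup G) :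
    Cfsg.oddGenerated H = (Cfsg.pResidual 2 ↥H).map H.subtype := by
  rw [H72.pResidual_map_eq]
  unfold Cfsg.oddGenerated
  simp only [Nat.coprime_two_right]

theorem pCoreOf_le_sylow (T : Sylow 2 G) {Y : Subgroup G} (hTY : (T : Subgroup G) ≤ Y) :
    Cfsg.pCoreOf 2 Y ≤ (T : Subgroup G) := by
  refine (map_mono (H72.pCore_le_sylow (T.subtype hTY))).trans ?_
  rw [Sylow.coe_subtype, subgroupOf_map_subtype]
  exact inf_le_left

/-- In a group of even characteristic, members of `ℋ(T)` have characteristic 2. -/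
theorem isCharP_of_mem {hT : Sylow 2 G} (hE : Cfsg.IsOfEvenCharacteristic G) {H : Subgroup G}
    (hne : Cfsg.pCore 2 ↥H ≠ ⊥) (hTH : (hT : Subgroup G) ≤ H) : H72.IsCharP 2 H := by
  set Q := Cfsg.pCoreOf 2 H with hQ
  set Y := normalizer (Q : Set G) with hY
  have hHY : H ≤ Y := H72.le_normalizer_pCoreOf 2 H
  have hQne : Q ≠ ⊥ := fun h => hne <| by
    rw [hQ, Cfsg.pCoreOf, map_eq_bot_iff_of_injective _ H.subtype_injective] at h
    exact h
  have hYc : H72.IsCharP 2 Y := H72.isCharP_iff.2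
    (hE Y ⟨Q, H72.pCoreOf_isPGroup 2 H, hQne, rfl⟩ ⟨hT, hTH.trans hHY⟩)
  have hle : Cfsg.pCoreOf 2 Y ≤ Q := H72.le_pCoreOf ((pCoreOf_le_sylow hT (hTH.trans hHY)).trans hTH)
    (hHY.trans (H72.le_normalizer_pCoreOf 2 Y)) (H72.pCoreOf_isPGroup 2 Y)
  exact fun x hx hc => hle (hYc x (hHY hx) (centralizer_le (SetLike.coe_subset_coe.2 hle) hc))

theorem map_le_centralizer_map_iff {G' : Type*} [Group G'] (f : G →* G') (hf : Function.Injective f)
    (X Y : Subgroup G) :
    X.map f ≤ centralizer (Y.map f : Set G') ↔ X ≤ centralizer (Y : Set G) := by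
  constructor
  · intro h x hx
    refine mem_centralizer_iff.2 fun y hy => hf ?_
    rw [map_mul, map_mul]
    exact mem_centralizer_iff.1 (h (mem_map_of_mem _ hx)) _ (mem_map_of_mem _ hy)
  · rintro h _ ⟨x, hx, rfl⟩
    refine mem_centralizer_iff.2 ?_
    rintro _ ⟨y, hy, rfl⟩
    rw [← map_mul, ← map_mul, mem_centralizer_iff.1 (h hx) y hy]

/-- Conjugation by a normaliser of `R`, as automorphisms of `R` seen inside `P`. -/
def conjAut {P R : Subgroup G} (hRP : R ≤ P) {S : Subgroup ↥P} (hS : ∀ x : ↥P, x ∈ S ↔ (x : G) ∈ R) :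
    ↥(normalizer (R : Set G)) →* MulAut ↥S where
  toFun m :=
    { toFun := fun x => ⟨⟨(m : G) * ((x : ↥P) : G) * (m : G)⁻¹,
          hRP ((mem_normalizer_iff.1 m.2 _).1 ((hS _).1 x.2))⟩,
          (hS _).2 ((mem_normalizer_iff.1 m.2 _).1 ((hS _).1 x.2))⟩
      invFun := fun x => ⟨⟨(m : G)⁻¹ * ((x : ↥P) : G) * (m : G),
          hRP ((mem_normalizer_iff''.1 m.2 _).1 ((hS _).1 x.2))⟩,
          (hS _).2 ((mem_normalizer_iff''.1 m.2 _).1 ((hS _).1 x.2))⟩
      left_inv := fun x => Subtype.ext (Subtype.ext (by simp [mul_assoc]))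
      right_inv := fun x => Subtype.ext (Subtype.ext (by simp [mul_assoc]))
      map_mul' := fun x y => Subtype.ext (Subtype.ext (by simp [mul_assoc])) }
  map_one' := MulEquiv.ext fun x => Subtype.ext (Subtype.ext (by simp))
  map_mul' m n := MulEquiv.ext fun x => Subtype.ext (Subtype.ext (by simp [mul_assoc]))

theorem map_moved_conjAut {P R : Subgroup G} (hRP : R ≤ P) {S : Subgroup ↥P}
    (hS : ∀ x : ↥P, x ∈ S ↔ (x : G) ∈ R) (m : ↥(normalizer (R : Set G))) {X : Subgroup ↥P} (hX : X ≤ S) :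
    (moved (conjAut hRP hS m) X).map P.subtype =
      (X.map P.subtype).map (MulAut.conj (m : G)).toMonoidHom := by
  ext g
  constructor
  · rintro ⟨y, hy, rfl⟩
    obtain ⟨x, hx, rfl⟩ := H35.OddPush.mem_moved.1 hy
    exact ⟨_, mem_map_of_mem _ hx, rfl⟩
  · rintro ⟨_, ⟨x, hx, rfl⟩, rfl⟩
    exact ⟨_, H35.OddPush.mem_moved.2 ⟨⟨x, hX hx⟩, hx, rfl⟩, rfl⟩

theorem exists_common (hE : Cfsg.IsOfEvenCharacteristic G) (T : Sylow 2 G) (M₀ H : Subgroup G)
    (hTM₀ : (T : Subgroup G) ≤ M₀) (hTH : (T : Subgroup G) ≤ H) (hH2 : Cfsg.pCore 2 ↥H ≠ ⊥)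
    (hU : ∃! K : Subgroup ↥H, IsCoatom K ∧ (T : Subgroup G).subgroupOf H ≤ K)
    (R : Subgroup G) (hR : R ≠ ⊥) (hRT : R ≤ (T : Subgroup G))
    (hRS : ∃ P : Sylow 2 ↥(Cfsg.oddGenerated H ⊔ R),
      (P : Subgroup ↥(Cfsg.oddGenerated H ⊔ R)) = R.subgroupOf (Cfsg.oddGenerated H ⊔ R))
    (hRM : M₀ ≤ normalizer (R : Set G)) :
    ∃ R₀ : Subgroup G, R₀ ≠ ⊥ ∧ R₀ ≤ R ∧ M₀ ⊔ H ≤ normalizer (R₀ : Set G) := by
  set LH := Cfsg.oddGenerated H with hLHdef
  set H₁ := LH ⊔ R with hH₁
  have hR2 : IsPGroup 2 R := T.2.to_le hRT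
  have hLH : LH ≤ H := by rw [hLHdef, oddGenerated_eq]; exact map_subtype_le _
  have hH₁H : H₁ ≤ H := sup_le hLH (hRT.trans hTH)
  have hHLH : H ≤ normalizer (LH : Set G) := by
    rw [hLHdef, oddGenerated_eq]
    exact le_normalizer.trans (H72.normalizer_le_normalizer_pResidual H)
  have hsupT : LH ⊔ (T : Subgroup G) = H := by
    have h := congrArg (Subgroup.map H.subtype) (H22.pResidual_sup_sylow (T.subtype hTH))
    rwa [Subgroup.map_sup, Sylow.coe_subtype, subgroupOf_map_subtype, inf_eq_left.2 hTH,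
      ← MonoidHom.range_eq_map, Subgroup.range_subtype, ← oddGenerated_eq] at h
  have hTH₁ : (T : Subgroup G) ≤ normalizer (H₁ : Set G) :=
    H83.le_normalizer_sup (hTH.trans hHLH) (hTM₀.trans hRM)
  have hHH₁ : H ≤ normalizer (H₁ : Set G) :=
    hsupT.ge.trans (sup_le ((le_sup_left : LH ≤ H₁).trans le_normalizer) hTH₁)
  obtain ⟨PS, hPS⟩ := hRS
  have hmaxR : ∀ X : Subgroup G, R ≤ X → X ≤ H₁ → IsPGroup 2 X → X = R := by
    intro X hRX hX hX2
    have h := PS.is_maximal' (Q := X.subgroupOf H₁) (hX2.of_equiv (subgroupOfEquivOfLe hX).symm)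
      (fun x hx => by rw [hPS] at hx; exact hRX hx)
    have h' := congrArg (Subgroup.map H₁.subtype) h
    rwa [hPS, subgroupOf_map_subtype, subgroupOf_map_subtype, inf_eq_left.2 hX,
      inf_eq_left.2 (le_sup_right : R ≤ H₁)] at h'
  have hTinf : (T : Subgroup G) ⊓ H₁ = R :=
    hmaxR _ (le_inf hRT le_sup_right) inf_le_right (T.2.to_le inf_le_left)
  set Q₁ := Cfsg.pCoreOf 2 H₁ with hQ₁
  have hQ₁R : Q₁ ≤ R := by
    refine (map_mono (H72.pCore_le_sylow PS)).trans ?_
    rw [hPS, subgroupOf_map_subtype]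
    exact inf_le_left
  have hH₁c : H72.IsCharP 2 H₁ := (isCharP_of_mem hE hH2 hTH).of_normal hH₁H hHH₁
  obtain ⟨K, ⟨hK, hTK⟩, hKuniq⟩ := hU
  set MH := K.map H.subtype with hMH
  have hTMH : (T : Subgroup G) ≤ MH := fun t ht => ⟨⟨t, hTH ht⟩, hTK ht, rfl⟩
  have hMHne : ¬ H ≤ MH := fun h => hK.1 (eq_top_iff.2 fun x _ => by
    obtain ⟨y, hy, e⟩ := h x.2
    rwa [show x = y from Subtype.ext e.symm])
  have hMHmax : ∀ X : Subgroup G, (T : Subgroup G) ≤ X → X ≤ H → X ≠ H → X ≤ MH := by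
    intro X hTX hXH hne
    have htop : X.subgroupOf H ≠ ⊤ := fun h => hne (le_antisymm hXH (subgroupOf_eq_top.1 h))
    obtain ⟨C, hC, hle⟩ := (eq_top_or_exists_le_coatom (X.subgroupOf H)).resolve_left htop
    obtain rfl := hKuniq C ⟨hC, fun x hx => hle (show x ∈ X.subgroupOf H from hTX hx)⟩
    exact fun x hx => ⟨⟨x, hXH hx⟩, hle hx, rfl⟩
  -- a minimal subgroup over `R` outside the maximal subgroup
  obtain ⟨P, ⟨hRP, hPH₁, hPMH⟩, hPmin⟩ := exists_minimal_of_wellFoundedLT
    (fun P : Subgroup G => R ≤ P ∧ P ≤ H₁ ∧ ¬ P ≤ MH)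
    ⟨H₁, le_sup_right, le_rfl, fun h => hMHne (hsupT.ge.trans (sup_le (le_sup_left.trans h) hTMH))⟩
  have hPH : P ≤ H := hPH₁.trans hH₁H
  have hPT : P ⊔ (T : Subgroup G) = H := by
    by_contra hne
    exact hPMH (le_sup_left.trans (hMHmax _ le_sup_right (sup_le hPH hTH) hne))
  have done : ∀ C : Subgroup G, C ≠ ⊥ → C ≤ R → M₀ ≤ normalizer (C : Set G) →
      P ≤ normalizer (C : Set G) → ∃ R₀ : Subgroup G, R₀ ≠ ⊥ ∧ R₀ ≤ R ∧ M₀ ⊔ H ≤ normalizer (R₀ : Set G) :=
    fun C hne hCR hM hP => ⟨C, hne, hCR, sup_le hM (hPT.ge.trans (sup_le hP (hTM₀.trans hM)))⟩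
  obtain ⟨S, hS⟩ : ∃ S : Sylow 2 ↥P, (S : Subgroup ↥P) = R.subgroupOf P := by
    obtain ⟨S, hS⟩ := (hR2.of_equiv (subgroupOfEquivOfLe hRP).symm).exists_le_sylow
    refine ⟨S, le_antisymm (fun x hx => ?_) hS⟩
    have h := hmaxR ((S : Subgroup ↥P).map P.subtype) (fun r hr => ⟨⟨r, hRP hr⟩, hS hr, rfl⟩)
      ((map_subtype_le _).trans hPH₁) (S.2.map _)
    exact (h.le ⟨x, hx, rfl⟩ : (x : G) ∈ R)
  have hmemS : ∀ x : ↥P, x ∈ (S : Subgroup ↥P) ↔ (x : G) ∈ R := fun x => by rw [hS, mem_subgroupOf]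
  have hSG : (S : Subgroup ↥P).map P.subtype = R := by
    rw [hS, subgroupOf_map_subtype, inf_eq_left.2 hRP]
  set L := (Cfsg.pResidual 2 ↥P).map P.subtype with hLdef
  have hLR : L ⊔ R = P := by
    have h := congrArg (Subgroup.map P.subtype) (H22.pResidual_sup_sylow S)
    rwa [Subgroup.map_sup, hSG, ← MonoidHom.range_eq_map, Subgroup.range_subtype] at h
  let φ : ↥M₀ →* MulAut ↥(S : Subgroup ↥P) := (conjAut hRP hmemS).comp (inclusion hRM)
  have hφ : ∀ (m : ↥M₀) {X : Subgroup ↥P}, X ≤ (S : Subgroup ↥P) →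
      (moved (φ m) X).map P.subtype = (X.map P.subtype).map (MulAut.conj (m : G)).toMonoidHom :=
    fun m X hX => map_moved_conjAut hRP hmemS _ hX
  have hinvar : ∀ X : Subgroup ↥P, X ≤ (S : Subgroup ↥P) → (∀ m, moved (φ m) X ≤ X) →
      M₀ ≤ normalizer (X.map P.subtype : Set G) := fun X hX hmv m hm =>
    H74.mem_normalizer_of_conj_mem fun d hd => by
      refine map_mono (hmv ⟨m, hm⟩) ?_
      rw [hφ ⟨m, hm⟩ hX]
      exact ⟨d, hd, rfl⟩
  have hnormal : ∀ X : Subgroup ↥P, X.Normal → P ≤ normalizer (X.map P.subtype : Set G) := fun X hX => by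
    have h := Subgroup.le_normalizer_map (H := X) P.subtype
    rwa [normalizer_eq_top_iff.2 hX, ← MonoidHom.range_eq_map, Subgroup.range_subtype] at h
  by_cases hn : (S : Subgroup ↥P).Normal
  · exact done R hR le_rfl hRM (hSG ▸ hnormal _ hn)
  by_cases hC : ∃ C : Subgroup ↥P, C ≤ Cfsg.baumannSubgroupOf 2 (S : Subgroup ↥P) ∧ C ≠ ⊥ ∧
      (C.subgroupOf (Cfsg.baumannSubgroupOf 2 (S : Subgroup ↥P))).Characteristic ∧ C.Normal
  · obtain ⟨C, hCB, hne, hCc, hCn⟩ := hC
    refine done _ (fun h => hne ((map_eq_bot_iff_of_injective _ P.subtype_injective).1 h))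
      (hSG ▸ map_mono (hCB.trans inf_le_left)) (hinvar C (hCB.trans inf_le_left) fun m => ?_) (hnormal C hCn)
    exact H35.OddPush.moved_characteristic _ inf_le_left (H35.OddPush.moved_baumann _) hCB hCc
  by_cases hz : (Cfsg.omegaOneCenter 2 (S : Subgroup ↥P)).Normal
  · have hle : Cfsg.omegaOneCenter 2 (S : Subgroup ↥P) ≤ (S : Subgroup ↥P) :=
      (H34.Star.omega_le _).trans inf_le_left
    refine done _ (fun h => ?_) (hSG ▸ map_mono hle)
      (hinvar _ hle fun m => (H35.OddPush.moved_omegaCenter _).le) (hnormal _ hz)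
    have h' := (map_eq_bot_iff_of_injective _ P.subtype_injective).1 h
    haveI : Nontrivial ↥(S : Subgroup ↥P) := by
      rw [Subgroup.nontrivial_iff_ne_bot]
      exact fun e => hR (hSG ▸ by rw [e, Subgroup.map_bot])
    haveI := S.2.center_nontrivial
    refine H72.omegaOne_ne_bot (S.2.to_le inf_le_left) (fun e => ?_) h'
    obtain ⟨c, hc⟩ := exists_ne (1 : ↥(center ↥(S : Subgroup ↥P)))
    refine hc (Subtype.ext (Subtype.ext ?_))
    have hm : ((c : ↥(S : Subgroup ↥P)) : ↥P) ∈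
        (S : Subgroup ↥P) ⊓ centralizer ((S : Subgroup ↥P) : Set ↥P) :=
      ⟨(c : ↥(S : Subgroup ↥P)).2, mem_centralizer_iff.2 fun s hs =>
        congrArg Subtype.val (mem_center_iff.1 c.2 ⟨s, hs⟩)⟩
    rw [e, mem_bot] at hm
    exact hm
  -- the standing hypotheses of pushing up
  set M := MH.subgroupOf P with hMdef
  have hsub : ∀ C : Subgroup ↥P, (S : Subgroup ↥P) ≤ C → C ≠ ⊤ → C ≤ M := by
    intro C hSC hne x hx
    show (x : G) ∈ MH
    by_contra hxn
    refine hne (eq_top_iff.2 fun y _ => ?_)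
    have h := hPmin (y := C.map P.subtype) ⟨hSG ▸ map_mono hSC, (map_subtype_le _).trans hPH₁,
      fun h => hxn (h ⟨x, hx, rfl⟩)⟩ (map_subtype_le _)
    obtain ⟨z, hz, e⟩ := h y.2
    rwa [show y = z from Subtype.ext e.symm]
  have hSM : (S : Subgroup ↥P) ≤ M := fun x hx => hTMH (hRT ((hmemS x).1 hx))
  have hMtop : M ≠ ⊤ := fun h => hPMH (subgroupOf_eq_top.1 h)
  have huniq : ∀ C : Subgroup ↥P, IsCoatom C → (S : Subgroup ↥P) ≤ C → C = M := fun C hC hSC =>
    le_antisymm (hsub C hSC hC.1) (by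
      rcases hC.le_iff.1 (hsub C hSC hC.1) with h | h
      · exact absurd h hMtop
      · exact h.le)
  have hMco : IsCoatom M := by
    obtain ⟨C, hC, hle⟩ := (eq_top_or_exists_le_coatom M).resolve_left hMtop
    exact huniq C hC (hSM.trans hle) ▸ hC
  have hpmin : Cfsg.IsPMinimal 2 ↥P := H51.isPMinimal_of_sylow S hn fun C C' h1 h2 h3 h4 =>
    (huniq C h1 h3).trans (huniq C' h2 h4).symm
  set Qg := Cfsg.pCoreOf 2 P with hQg
  have hQgR : Qg ≤ R := by
    rw [← hSG]
    exact map_mono (H72.pCore_le_sylow S)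
  have hQ₁Qg : Q₁ ≤ Qg := H72.le_pCoreOf (hQ₁R.trans hRP)
    (hPH₁.trans (H72.le_normalizer_pCoreOf 2 H₁)) (H72.pCoreOf_isPGroup 2 H₁)
  have hPc : Subgroup.centralizer (Cfsg.pCore 2 ↥P : Set ↥P) ≤ Cfsg.pCore 2 ↥P :=
    H72.isCharP_iff.1 fun x hx hc =>
      hQ₁Qg (hH₁c x (hPH₁ hx) (centralizer_le (SetLike.coe_subset_coe.2 hQ₁Qg) hc))
  have hctx : Ctx S M := ⟨hpmin, hPc, fun C h1 h2 h3 h4 => hC ⟨C, h1, h2, h3, h4⟩, hz, hMco, hSM⟩
  obtain ⟨hcase, hf⟩ := H35.OddPush.exists_case_facts hctx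
  -- the images of `V`
  set V := (vee 2 ↥P).map P.subtype with hVdef
  have hVQg : V ≤ Qg := map_mono H34.Push.vee_le_core
  let W : ↥M₀ → Subgroup G := fun m => V.map (MulAut.conj (m : G)).toMonoidHom
  have hWimg : ∀ m, W m = (img (φ m)).map P.subtype := fun m =>
    (hφ m H35.OddPush.vee_le_T).symm
  have hWR : ∀ m, W m ≤ R := fun m => by
    rw [hWimg, ← hSG]
    exact map_mono (H35.OddPush.moved_le _ _)
  have hW1 : W 1 = V := by
    rw [hWimg, map_one, H35.OddPush.img_one]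
  let Rel : ↥M₀ → ↥M₀ → Prop := fun a b => ¬ W a ≤ centralizer (W b : Set G)
  have hRel : ∀ a b, Rel a b ↔ Adj (φ a) (φ b) := fun a b => by
    show ¬ _ ↔ ¬ _
    rw [hWimg, hWimg, map_le_centralizer_map_iff _ P.subtype_injective]
  have hinv : ∀ (c : ↥M₀) {a b}, Rel a b → Rel (c * a) (c * b) := fun c a b h => by
    rw [hRel, map_mul, map_mul]
    exact H35.OddPush.adj_mul (φ c) ((hRel a b).1 h)
  have hsymm : ∀ {a b}, Rel a b → Rel b a := fun h h' => h (le_centralizer_iff.1 h')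
  have hcore : ∀ a, ¬ Rel 1 a → W a ≤ Qg := fun a h => by
    rw [hWimg]
    refine map_mono (img_le_of_not_adj hctx ?_)
    rwa [hRel, map_one] at h
  have hconj : ∀ c a : ↥M₀, (W a).map (MulAut.conj (c : G)).toMonoidHom = W (c * a) := fun c a => by
    simp only [W, Subgroup.map_map]
    congr 1
    ext x
    simp [mul_assoc]
  by_cases hedge : ∀ a, ¬ Rel 1 a
  · -- all images lie in `O₂(P)`
    set U := ⨆ a, W a with hUdef
    have hUQ : U ≤ Qg := iSup_le fun a => hcore a (hedge a)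
    have hVU : V ≤ U := hW1 ▸ le_iSup W 1
    have hM₀U : M₀ ≤ normalizer (U : Set G) := fun m hm => H74.mem_normalizer_of_conj_mem fun d hd => by
      have hle : U.map (MulAut.conj m).toMonoidHom ≤ U := by
        rw [hUdef, Subgroup.map_iSup]
        exact iSup_le fun a => (hconj ⟨m, hm⟩ a).le.trans (le_iSup W _)
      exact hle ⟨d, hd, rfl⟩
    refine done U (fun h => ?_) (hUQ.trans hQgR) hM₀U ?_
    · have hV0 : vee 2 ↥P = ⊥ :=
        (map_eq_bot_iff_of_injective _ P.subtype_injective).1 (le_bot_iff.1 (h ▸ hVU))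
      refine hMco.1 (eq_top_iff.2 fun x _ => hctx.cee_le (mem_centralizer_iff.2 fun v hv => ?_))
      rw [SetLike.mem_coe, hV0, mem_bot] at hv
      rw [hv, one_mul, mul_one]
    · rw [← hLR]
      refine sup_le (fun l hl => H74.mem_normalizer_of_conj_mem fun d hd => ?_)
        ((hRT.trans hTM₀).trans hM₀U)
      obtain ⟨l, hl, rfl⟩ := hl
      obtain ⟨d, hdQ, rfl⟩ := hUQ hd
      have h1 : ((⁅d, l⁆ : ↥P) : G) ∈ U :=
        hVU ⟨_, hf.comm (commutator_mem_commutator hdQ hl), rfl⟩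
      have h2 := mul_mem (inv_mem h1) hd
      rwa [show ((⁅d, l⁆ : ↥P) : G)⁻¹ * P.subtype d = P.subtype l * P.subtype d * (P.subtype l)⁻¹ by
        simp [commutatorElement_def, mul_assoc]] at h2
  · push Not at hedge
    obtain ⟨g, hg⟩ := hedge
    exfalso
    -- translates of `V` under `T` commute with `V`
    have hVcomm : ∀ t : ↥M₀, (t : G) ∈ (T : Subgroup G) → ¬ Rel 1 t := by
      intro t ht h
      have hVQ₁ : V ≤ Q₁ := fun x hx => hH₁c x (hPH₁ (map_subtype_le _ hx)) <| by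
        refine centralizer_le (SetLike.coe_subset_coe.2 hQ₁Qg) ?_
        exact (map_le_centralizer_map_iff _ P.subtype_injective _ _).2
          (le_centralizer_iff.1 H34.Push.core_le_cee) hx
      refine h (hW1 ▸ (le_centralizer_iff.1 ?_))
      intro y hy
      obtain ⟨x, hx, rfl⟩ := hy
      have hy' : (t : G) * x * (t : G)⁻¹ ∈ Qg := hQ₁Qg ((mem_normalizer_iff.1
        (H83.normalizer_le_map_char H₁ (Cfsg.pCore 2 ↥H₁) (H51.pCore_characteristic 2 ↥H₁) (hTH₁ ht)) x).1 (hVQ₁ hx))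
      exact (map_le_centralizer_map_iff _ P.subtype_injective _ _).2 H34.Push.core_le_cee hy'
    obtain ⟨k, hk⟩ := IsPGroup.iff_card.1 ((T.subtype hTM₀).2)
    have hodd : Odd ((T : Subgroup G).subgroupOf M₀).index := by
      rw [← Sylow.coe_subtype T hTM₀, Nat.odd_iff]
      have := (T.subtype hTM₀).not_dvd_index
      omega
    obtain ⟨a₀, b₀, hab, ha₀, hb₀⟩ := exists_edge_avoiding (A := ↥M₀) (ι := ↥M₀) (R := Rel)
      (fun h => hsymm h) (fun c _ _ h => hinv c h)
      (fun h1 h2 h3 _ h4 => (hRel _ _).2 (twins hctx hcase hf (fun h => h1 ((hRel _ _).2 h))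
        ((hRel _ _).1 h2) ((hRel _ _).1 h3) ((hRel _ _).1 h4)))
      (fun h1 h2 h3 => no_triangle hctx hcase hf ((hRel _ _).1 h1) ((hRel _ _).1 h2) ((hRel _ _).1 h3))
      ((T : Subgroup G).subgroupOf M₀) hodd (k := k) hk (u := 1) (g := g) hg
      (fun t ht => by rw [smul_eq_mul, mul_one]; exact hVcomm t ht)
    set Good : Set ↥M₀ := {a | ∀ t ∈ (T : Subgroup G).subgroupOf M₀, ¬ Rel a t ∧ ¬ Rel a (t * g)} with hGood
    have hgood : ∀ a, (∀ t ∈ (T : Subgroup G).subgroupOf M₀, ¬ Rel a (t • 1) ∧ ¬ Rel a (t • g)) → a ∈ Good :=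
      fun a h t ht => by simpa [smul_eq_mul] using h t ht
    have hGoodT : ∀ t ∈ (T : Subgroup G).subgroupOf M₀, ∀ a ∈ Good, t * a ∈ Good := by
      intro t ht a ha s hs
      have h := ha _ (mul_mem (inv_mem ht) hs)
      refine ⟨fun h' => h.1 ?_, fun h' => h.2 ?_⟩
      · have := hinv t⁻¹ h'
        rwa [inv_mul_cancel_left] at this
      · have := hinv t⁻¹ h'
        rwa [inv_mul_cancel_left, ← mul_assoc] at this
    set N := ⨆ a : Good, ⨆ b : Good, ⁅W a, W b⁆ with hNdef
    have hNR : N ≤ R := iSup_le fun a => iSup_le fun b =>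
      commutator_le.2 fun x hx y hy => by
        rw [commutatorElement_def]
        exact mul_mem (mul_mem (mul_mem (hWR _ hx) (hWR _ hy)) (inv_mem (hWR _ hx))) (inv_mem (hWR _ hy))
    have hNne : N ≠ ⊥ := fun h => hab (commutator_eq_bot_iff_le_centralizer.1 (le_bot_iff.1 (h ▸
      le_iSup_of_le (⟨a₀, hgood a₀ ha₀⟩ : Good) (le_iSup_of_le (⟨b₀, hgood b₀ hb₀⟩ : Good) le_rfl))))
    have hTN : (T : Subgroup G) ≤ normalizer (N : Set G) := fun t ht =>
      H74.mem_normalizer_of_conj_mem fun d hd => by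
        have hle : N.map (MulAut.conj t).toMonoidHom ≤ N := by
          rw [hNdef, Subgroup.map_iSup]
          refine iSup_le fun a => ?_
          rw [Subgroup.map_iSup]
          refine iSup_le fun b => ?_
          rw [Subgroup.map_commutator, hconj ⟨t, hTM₀ ht⟩, hconj ⟨t, hTM₀ ht⟩]
          exact le_iSup_of_le (⟨_, hGoodT ⟨t, hTM₀ ht⟩ ht a a.2⟩ : Good)
            (le_iSup_of_le (⟨_, hGoodT ⟨t, hTM₀ ht⟩ ht b b.2⟩ : Good) le_rfl)
        exact hle ⟨d, hd, rfl⟩
    have hder : ⁅Qg, Qg⁆ ≤ centralizer (L : Set G) := by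
      rw [hQg, Cfsg.pCoreOf, ← Subgroup.map_commutator, hLdef]
      exact (map_le_centralizer_map_iff _ P.subtype_injective _ _).2 hf.derived
    have hLN : L ≤ centralizer (N : Set G) := le_centralizer_iff.1 (iSup_le fun a => iSup_le fun b => by
      refine le_trans (commutator_mono (hcore _ fun h => (a.2 1 (one_mem _)).1 (hsymm h))
        (hcore _ fun h => (b.2 1 (one_mem _)).1 (hsymm h))) hder)
    set Lg := L.map (MulAut.conj (g : G)).toMonoidHom with hLg
    have hLgN : Lg ≤ centralizer (N : Set G) := le_centralizer_iff.1 (iSup_le fun a => iSup_le fun b => by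
      have key : ∀ c : Good, W (g⁻¹ * (c : ↥M₀)) ≤ Qg := fun c => hcore _ fun h => (c.2 1 (one_mem _)).2 (by
        have := hinv g h
        rw [mul_one, mul_inv_cancel_left] at this
        rw [one_mul]
        exact hsymm this)
      have h := map_mono (f := (MulAut.conj (g : G)).toMonoidHom) ((commutator_mono (key a) (key b)).trans hder)
      rw [Subgroup.map_commutator, hconj, hconj, mul_inv_cancel_left, mul_inv_cancel_left] at h
      refine h.trans ?_
      rintro _ ⟨x, hx, rfl⟩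
      refine mem_centralizer_iff.2 ?_
      rintro _ ⟨l, hl, rfl⟩
      rw [← map_mul, ← map_mul, mem_centralizer_iff.1 hx l hl])
    set Y := normalizer (N : Set G) with hYdef
    set D := Cfsg.pCoreOf 2 Y with hDdef
    have hYc : H72.IsCharP 2 Y := H72.isCharP_iff.2
      (hE Y ⟨N, hR2.to_le hNR, hNne, rfl⟩ ⟨T, hTN⟩)
    have hDT : D ≤ (T : Subgroup G) := pCoreOf_le_sylow T hTN
    have hLY : L ≤ Y := hLN.trans (centralizer_le_normalizer _)
    have hYD : Y ≤ normalizer (D : Set G) := H72.le_normalizer_pCoreOf 2 Y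
    have hPY : P ≤ Y := hLR.ge.trans (sup_le hLY (hRT.trans hTN))
    set Pg := P.map (MulAut.conj (g : G)).toMonoidHom with hPg
    have hgR : R.map (MulAut.conj (g : G)).toMonoidHom = R :=
      mem_normalizer_iff_map_conj_eq.1 (hRM g.2)
    have hPgY : Pg ≤ Y := by
      rw [hPg, ← hLR, Subgroup.map_sup, hgR]
      exact sup_le (hLgN.trans (centralizer_le_normalizer _)) (hRT.trans hTN)
    have hRPg : R ≤ Pg := hgR.ge.trans (map_mono hRP)
    set E := ⁅D, L⁆ with hEdef
    have hLsub : L ≤ LH := by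
      rw [hLdef, hLHdef, H72.pResidual_map_eq]
      unfold Cfsg.oddGenerated
      exact closure_mono fun x hx => ⟨hPH hx.1, Nat.coprime_two_right.1 hx.2⟩
    have hED : E ≤ D := le_normalizer_iff_commutator_le_left.1 (hLY.trans hYD)
    have hER : E ≤ R := by
      refine (le_inf (hED.trans hDT) ?_).trans hTinf.le
      refine le_trans (commutator_mono le_rfl hLsub) (le_trans ?_ (le_sup_left : LH ≤ H₁))
      exact le_normalizer_iff_commutator_le_right.1 ((hDT.trans hTH).trans hHLH)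
    have hEQ : ∀ X : Subgroup G, R ≤ X → X ≤ Y → E ≤ Cfsg.pCoreOf 2 X := fun X hRX hXY => by
      refine le_trans (le_inf hED (hER.trans hRX)) (H72.le_pCoreOf inf_le_right ?_
        ((H72.pCoreOf_isPGroup 2 Y).to_le inf_le_left))
      exact (le_inf (hXY.trans hYD) le_normalizer).trans inf_normalizer_le_normalizer_inf
    have hPE : P ≤ normalizer (E : Set G) := H83.le_normalizer_commutator (hPY.trans hYD) (by
      rw [hLdef]
      exact le_normalizer.trans (H72.normalizer_le_normalizer_pResidual P))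
    -- `E` is centralised by the neighbour of `V`
    have hWE : W g ≤ centralizer (E : Set G) := by
      refine le_trans ?_ (centralizer_le (SetLike.coe_subset_coe.2 (hEQ Pg hRPg hPgY)))
      rw [hPg, H72.pCoreOf_map_equiv]
      exact (map_le_centralizer_map_iff _ (MulAut.conj (g : G)).injective _ _).2
        ((map_le_centralizer_map_iff _ P.subtype_injective _ _).2 (le_centralizer_iff.1 H34.Push.core_le_cee))
    have hLE : L ≤ centralizer (E : Set G) := by
      set E' := E.subgroupOf P with hE'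
      haveI : E'.Normal := normal_subgroupOf_of_le_normalizer hPE
      have hEP : E ≤ P := hER.trans hRP
      have hEmap : E'.map P.subtype = E := by rw [hE', subgroupOf_map_subtype, inf_eq_left.2 hEP]
      haveI := normal_centralizer (H := E')
      rcases H74.pmin_normal_dichotomy hpmin hMco hSM (centralizer (E' : Set ↥P)) with h | h
      · rw [hLdef, ← hEmap]
        exact (map_le_centralizer_map_iff _ P.subtype_injective _ _).2 h
      · exfalso
        have hX : img (φ g) ≤ centralizer (E' : Set ↥P) := by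
          rw [← map_le_centralizer_map_iff _ P.subtype_injective, ← hWimg, hEmap]
          exact hWE
        have hXQ : img (φ g) ≤ Cfsg.pCore 2 ↥P :=
          (le_inf (H35.OddPush.moved_le _ _) hX).trans (H34.Star.inf_le_pCore hpmin hMco hSM h)
        have := (hRel 1 g).1 hg
        rw [map_one] at this
        exact this (by
          rw [H35.OddPush.img_one]
          exact le_centralizer_iff.1 (hXQ.trans H34.Push.core_le_cee))
    -- so `L` centralises `O₂(Y)`, hence is trivial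
    have hLbot : L = ⊥ := by
      rw [hLdef, H72.pResidual_map_eq, closure_eq_bot_iff]
      rintro x ⟨hx, hxc⟩
      have hxL : x ∈ L := H72.mem_pResidual_map hx hxc
      have hcent : x ∈ centralizer (D : Set G) :=
        H72.coprime_mem_centralizer_of_series' (H72.pCoreOf_isPGroup 2 Y) (hYD (hLY hxL)) hxc (N := E)
          (fun d hd => by
            have := inv_mem (commutator_mem_commutator hd hxL : ⁅d, x⁆ ∈ E)
            rwa [commutatorElement_inv] at this)
          (hLE hxL)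
      exact H72.eq_one_of_coprime_of_isPGroup (H72.pCoreOf_isPGroup 2 Y) (hYc x (hLY hxL) hcent) hxc
    refine hn ?_
    have hPR : P = R := by rw [← hLR, hLbot, bot_sup_eq]
    have hStop : (S : Subgroup ↥P) = ⊤ := eq_top_iff.2 fun x _ => (hmemS x).2 (hPR ▸ x.2)
    rw [hStop]
    infer_instance

end Cfsg.Agent.H73.QT
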