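import Mathlib

/-!
A symmetric invariant relation on a transitive set without triangles, in which two unrelated points with a
common neighbour have the same neighbours. If a subgroup of odd index keeps a point `u` unrelated to its
translates, then some edge avoids all translates of `u` and of a chosen neighbour `g` of `u`.
-/

set_option autoImplicit false

namespace Cfsg.Agent.H73.QT

open scoped Pointwise

variable {A ι : Type*} [Group A] [Finite A] [MulAction A ι] [MulAction.IsPretransitive A ι]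
  {R : ι → ι → Prop}

/-- The neighbours of a point. -/
def nbhd (R : ι → ι → Prop) (u : ι) : Set ι := {x | R u x}

omit [Finite A] [MulAction.IsPretransitive A ι] in
theorem smul_nbhd (hinv : ∀ (a : A) {u v}, R u v → R (a • u) (a • v)) (a : A) (u : ι) :
    a • nbhd R u = nbhd R (a • u) := by
  ext x
  rw [Set.mem_smul_set_iff_inv_smul_mem]
  constructor
  · intro h
    have := hinv a h
    rwa [smul_inv_smul] at this
  · intro h
    have := hinv a⁻¹ h
    rwa [inv_smul_smul] at this

/-- An edge avoiding the translates of `u` and of `g`. -/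
theorem exists_edge_avoiding (hsymm : ∀ {u v}, R u v → R v u)
    (hinv : ∀ (a : A) {u v}, R u v → R (a • u) (a • v))
    (htwin : ∀ {u v w}, ¬ R u v → R u w → R v w → ∀ {x}, R u x → R v x)
    (hno : ∀ {u v w}, R u v → R v w → ¬ R u w)
    (T : Subgroup A) (hT : Odd T.index) {k : ℕ} (hcard : Nat.card T = 2 ^ k)
    {u g : ι} (hug : R u g) (hTu : ∀ t ∈ T, ¬ R u (t • u)) :
    ∃ a b : ι, R a b ∧ (∀ t ∈ T, ¬ R a (t • u) ∧ ¬ R a (t • g)) ∧
      ∀ t ∈ T, ¬ R b (t • u) ∧ ¬ R b (t • g) := by
  classical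
  have hsame : ∀ {x y w}, R x w → R y w → nbhd R x = nbhd R y := fun {x y w} h1 h2 => by
    have hn : ¬ R x y := fun h => hno h h2 h1
    exact Set.ext fun z => ⟨fun hz => htwin hn h1 h2 hz, fun hz => htwin (fun h => hn (hsymm h)) h2 h1 hz⟩
  have hnext : ∀ x : ι, ∃ y, R x y := fun x => by
    obtain ⟨a, rfl⟩ := MulAction.exists_smul_eq A u x
    exact ⟨a • g, hinv a hug⟩
  by_cases hgood : ∃ a, ∀ t ∈ T, ¬ R a (t • u) ∧ ¬ R a (t • g)
  · obtain ⟨a, ha⟩ := hgood
    obtain ⟨b, hab⟩ := hnext a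
    refine ⟨a, b, hab, ha, fun t ht => ⟨fun hb => (ha t ht).2 ?_, fun hb => (ha t ht).1 ?_⟩⟩
    · -- `a` and `t • u` have the common neighbour `b`
      exact (hsame hab (hsymm hb) ▸ hinv t hug : t • g ∈ nbhd R a)
    · exact (hsame hab (hsymm hb) ▸ hinv t (hsymm hug) : t • u ∈ nbhd R a)
  exfalso
  push_neg at hgood
  set O : Set (Set ι) := Set.range fun t : T => nbhd R ((t : A) • u) with hOdef
  set O' : Set (Set ι) := Set.range fun t : T => nbhd R ((t : A) • g) with hO'def
  have hiff : ∀ s t : T, nbhd R ((s : A) • u) = nbhd R ((t : A) • u) ↔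
      nbhd R ((s : A) • g) = nbhd R ((t : A) • g) := by
    intro s t
    constructor
    · intro h
      exact hsame (hsymm (hinv (s : A) hug)) (hsymm (h ▸ hinv (t : A) hug : (t : A) • g ∈ nbhd R ((s : A) • u)))
    · intro h
      have h1 : (t : A) • u ∈ nbhd R ((s : A) • g) := h ▸ hinv (t : A) (hsymm hug)
      exact hsame (hinv (s : A) hug) (hsymm h1)
  have hdisj : Disjoint O O' := by
    rw [Set.disjoint_left]
    rintro _ ⟨t, rfl⟩ ⟨s, hs⟩
    have h1 : (s : A) • u ∈ nbhd R ((t : A) • u) :=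
      (congrArg (fun S : Set ι => (s : A) • u ∈ S) hs).mp (hinv (s : A) (hsymm hug))
    have h2 := hinv (t : A)⁻¹ h1
    rw [inv_smul_smul, ← mul_smul] at h2
    exact hTu _ (T.mul_mem (T.inv_mem t.2) s.2) h2
  have horb : MulAction.orbit A (nbhd R u) = O ∪ O' := by
    refine Set.Subset.antisymm ?_ ?_
    · rintro _ ⟨a, rfl⟩
      simp only [smul_nbhd hinv]
      obtain ⟨t, ht, h⟩ := hgood (a • u)
      by_cases h1 : R (a • u) (t • u)
      · exact Or.inr ⟨⟨t, ht⟩, (hsame h1 (hsymm (hinv t hug))).symm⟩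
      · exact Or.inl ⟨⟨t, ht⟩, (hsame (h h1) (hinv t hug)).symm⟩
    · rintro _ (⟨t, rfl⟩ | ⟨t, rfl⟩)
      · exact ⟨(t : A), smul_nbhd hinv _ _⟩
      · obtain ⟨a, ha⟩ := MulAction.exists_smul_eq A u ((t : A) • g)
        exact ⟨a, by simp only [smul_nbhd hinv, ha]⟩
  have hfinO : O.Finite := Set.finite_range _
  have hfinO' : O'.Finite := Set.finite_range _
  have hcardO' : O'.ncard = O.ncard := by
    refine Set.ncard_congr' ?_
    refine (Equiv.ofBijective (fun y : O' => (⟨nbhd R ((y.2.choose : A) • u), y.2.choose, rfl⟩ : O)) ⟨?_, ?_⟩)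
    · intro y y' e
      have e' := (hiff _ _).1 (congrArg Subtype.val e)
      exact Subtype.ext (y.2.choose_spec.symm.trans (e'.trans y'.2.choose_spec))
    · rintro ⟨_, t, rfl⟩
      let y : O' := ⟨_, t, rfl⟩
      exact ⟨y, Subtype.ext ((hiff _ _).2 y.2.choose_spec)⟩
  set K := MulAction.stabilizer A (nbhd R u) with hK
  have hindex : K.index = O.ncard + O'.ncard := by
    rw [hK, MulAction.index_stabilizer, horb, Set.ncard_union_eq hdisj hfinO hfinO']
  have hO : O.ncard = K.relIndex T := by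
    have e : K.subgroupOf T = MulAction.stabilizer T (nbhd R u) := rfl
    rw [Subgroup.relIndex, e, MulAction.index_stabilizer]
    congr 1
    ext x
    constructor
    · rintro ⟨t, rfl⟩
      exact ⟨t, smul_nbhd hinv _ _⟩
    · rintro ⟨t, rfl⟩
      exact ⟨t, (smul_nbhd hinv _ _).symm⟩
  rw [hcardO', hO, ← two_mul] at hindex
  have hinter := Subgroup.card_mul_index (K.subgroupOf T)
  obtain ⟨i, -, hi⟩ := (Nat.dvd_prime_pow Nat.prime_two).1
    (hcard ▸ Subgroup.card_subgroup_dvd_card (K.subgroupOf T))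
  have hdvd : Nat.card ↥(K.subgroupOf T) ∣ Nat.card K := by
    rw [← Subgroup.inf_subgroupOf_right, Nat.card_congr (Subgroup.subgroupOfEquivOfLe inf_le_right).toEquiv]
    exact Subgroup.card_dvd_of_le inf_le_left
  obtain ⟨c, hc⟩ := hdvd
  have hA : Nat.card A = 2 * Nat.card T * c := by
    rw [← K.card_mul_index, hindex, hc, ← hinter, Subgroup.relIndex]
    ring
  have hA' := T.card_mul_index
  rw [hA, mul_comm 2, mul_assoc] at hA'
  have h2 : T.index = 2 * c := Nat.eq_of_mul_eq_mul_left Nat.card_pos hA'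
  exact (Nat.not_even_iff_odd.2 hT) (h2 ▸ even_two_mul c)

end Cfsg.Agent.H73.QT
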